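import Cfsg.Agent.Lib.Helper19.DCover

/-! Abstract lemmas: a surjection obtained by counting, and a variant of the criterion for
non-split double covers. -/

set_option autoImplicit false

namespace Cfsg.Agent.Lib.Helper19.U6

open Cfsg.Agent.Lib.Helper19

theorem cover_of_count {H S X : Type*} [Group H] [Group S] [Finite X]
    (ρ : H →* Equiv.Perm X) (σ : S →* Equiv.Perm X) (hσ : Function.Injective σ) (m : ℕ)
    (hS : Nat.card S = m) (hge : m ≤ Nat.card ρ.range) (hle : ρ.range ≤ σ.range) :
    ∃ θ : H →* S, Function.Surjective θ ∧ ∀ x, σ (θ x) = ρ x := by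
  classical
  have hcσ : Nat.card σ.range = m := by
    rw [← hS]
    exact (Nat.card_congr (MonoidHom.ofInjective hσ).toEquiv).symm
  have he : ρ.range = σ.range := Subgroup.eq_of_le_of_card_ge hle (by rw [hcσ]; exact hge)
  let e := MonoidHom.ofInjective hσ
  let θ : H →* S := e.symm.toMonoidHom.comp ((Subgroup.inclusion hle).comp ρ.rangeRestrict)
  have hθ : ∀ x, σ (θ x) = ρ x := by
    intro x
    have h1 : e (θ x) = Subgroup.inclusion hle (ρ.rangeRestrict x) := e.apply_symm_apply _
    exact congrArg Subtype.val h1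
  refine ⟨θ, ?_, hθ⟩
  intro y
  have hy : σ y ∈ ρ.range := by rw [he]; exact ⟨y, rfl⟩
  obtain ⟨x, hx⟩ := hy
  exact ⟨x, hσ (by rw [hθ, hx])⟩

theorem nonsplit' {H K : Type*} [Group H] [Group K] [Finite H]
    (t : H) (ht : t ≠ 1) (ht2 : t * t = 1) (hc : ∀ x, x * t = t * x)
    (θ : H →* K) (hθ : Function.Surjective θ) (hθt : θ t = 1)
    (hcard : Nat.card H = 2 * Nat.card K)
    (hK : Subgroup.center K = ⊥) (hp : commutator H = ⊤) :
    Cfsg.IsNonsplitDoubleCover H K := by
  have := DCover.normal_of_central t hc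
  have hle : Subgroup.zpowers t ≤ θ.ker := by
    rw [Subgroup.zpowers_le]
    exact hθt
  let θb : H ⧸ Subgroup.zpowers t →* K := QuotientGroup.lift _ θ (fun x hx => hle hx)
  have hs : Function.Surjective θb := fun y => by
    obtain ⟨x, rfl⟩ := hθ y
    exact ⟨QuotientGroup.mk x, rfl⟩
  have ho : orderOf t = 2 := orderOf_eq_prime (by rw [pow_two, ht2]) ht
  have hZ : Nat.card (Subgroup.zpowers t) = 2 := by rw [Nat.card_zpowers, ho]
  have hq : Nat.card (H ⧸ Subgroup.zpowers t) = Nat.card K := by
    have := Subgroup.card_eq_card_quotient_mul_card_subgroup (Subgroup.zpowers t)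
    rw [hZ, hcard] at this
    omega
  have hpos : 0 < Nat.card H := Nat.card_pos
  have : Finite K := Nat.finite_of_card_ne_zero (by omega)
  have hb : Function.Bijective θb := (Nat.bijective_iff_surjective_and_card θb).2 ⟨hs, hq⟩
  exact DCover.nonsplit t ht ht2 hc (MulEquiv.ofBijective θb hb).symm.toMonoidHom
    (MulEquiv.surjective _) hcard hK hp

end Cfsg.Agent.Lib.Helper19.U6
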