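import Cfsg.Agent.Lib.Helper19.U6.Vec

/-! Checks on vectors. -/

set_option autoImplicit false
set_option maxRecDepth 1000000

namespace Cfsg.Agent.Lib.Helper19.U6

open Cfsg.Agent.Lib.Helper19.TCS
open Cfsg.Agent.Lib.Helper19.Sp4 (K4)

theorem okT1 : ∀ c : Fin 4096, c.1 ≠ 0 → H6 (dec6 c.1) (dec6 c.1) = 0 →
    ixc c.1 < 693 ∧ ∃ l : K4, l ≠ 0 ∧ dec6 c.1 = l • vt (ixc c.1) := by decide +kernel

theorem okT2 : ∀ j : Fin 693, H6 (vt j.1) (vt j.1) = 0 ∧ vt j.1 ≠ 0 ∧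
    ∀ l : K4, l ≠ 0 → ixc (enc6 (l • vt j.1)) = j.1 := by decide +kernel

theorem okM : ∀ k : Fin 9, k.1 ≠ 0 → ∀ j : Fin 693,
    ixc (enc6 (tf (vt (selN ptl k.1)) (vt j.1))) = fB cR k.1 j.1 := by decide +kernel

end Cfsg.Agent.Lib.Helper19.U6
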