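import Cfsg.Agent.Lib.Helper19.U6.Main
import Cfsg.Agent.Lib.Helper19.Transp

/-! The class of 3-transpositions of the presented group `Fi22`. -/

set_option autoImplicit false
set_option maxRecDepth 1000000

namespace Cfsg.Agent.Lib.Helper19.U6

open Cfsg.Agent.Lib.Helper19.TCS (evn)
open Cfsg.Agent.Lib.Helper19.PresFi22 (el el_sq)
open Cfsg.Agent.Lib.Helper19.Sp4 (K4)
open Cfsg.Agent.Lib.Helper19
open Cfsg.Agent.Lib.Helper19.Fi22c (HH)

theorem evn_mul_rev {G : Type*} [Group G] (e : ℕ → G) (he : ∀ k, e k * e k = 1) (l : List ℕ) :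
    evn e l * evn e l.reverse = 1 := by
  induction l with
  | nil => simp [evn]
  | cons k l ih =>
    rw [List.reverse_cons, TC2.evn_append, TC2.evn_single]
    have e1 : evn e (k :: l) = e k * evn e l := by simp [evn]
    rw [e1]
    calc e k * evn e l * (evn e l.reverse * e k)
        = e k * (evn e l * evn e l.reverse) * e k := by group
      _ = 1 := by rw [ih, mul_one, he]

noncomputable def t : Cfsg.Spor.Fi22 := evn el [0]

theorem t_ne : t ≠ 1 := fun h => tH_ne (Subtype.ext h)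

theorem t_sq : t * t = 1 := congrArg Subtype.val tH_sq

/-- the word of `t * (r * t * r⁻¹)` -/
def Wd (r : List ℕ) : List ℕ := [0] ++ (r ++ ([0] ++ r.reverse))

theorem Wd_eq (r : List ℕ) : t * (evn el r * t * (evn el r)⁻¹) = evn el (Wd r) := by
  unfold Wd
  rw [TC2.evn_append, TC2.evn_append, TC2.evn_append,
    inv_eq_of_mul_eq_one_right (evn_mul_rev el el_sq r), mul_assoc]
  rfl

abbrev r1 : List ℕ := [1, 2, 0, 1]
abbrev r2 : List ℕ := [1]

theorem ck1 : TCS.loop (fun i => Nat.beq (TC2.app Fi22c.cB (Wd r1 ++ Wd r1) i) i) 0 3510 = true := by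
  decide +kernel

theorem ck2 : TCS.loop (fun i => Nat.beq (TC2.app Fi22c.cB (Wd r2 ++ (Wd r2 ++ Wd r2)) i) i) 0 3510
    = true := by
  decide +kernel

theorem one_of_ck (w : List ℕ) (hw : ∀ k ∈ w, k < 9)
    (h : TCS.loop (fun i => Nat.beq (TC2.app Fi22c.cB w i) i) 0 3510 = true) : evn el w = 1 :=
  TC2.eq_of_app (L := 9) Fi22c.ψ Fi22c.hψ S1696.faith w [] hw (by simp)
    (fun i hi => Nat.eq_of_beq_eq_true (TCS.loop_spec h i (Nat.zero_le _)
      (by have : i < 3510 := hi; omega)))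

theorem P0 : (t * (1 * t * 1⁻¹)) ^ 2 = 1 := by
  rw [one_mul, inv_one, mul_one, t_sq, one_pow]

theorem P1 : (t * (evn el r1 * t * (evn el r1)⁻¹)) ^ 2 = 1 := by
  rw [Wd_eq, pow_two, ← TC2.evn_append]
  exact one_of_ck _ (by decide) ck1

theorem P2 : (t * (evn el r2 * t * (evn el r2)⁻¹)) ^ 3 = 1 := by
  rw [Wd_eq, pow_succ', pow_two, ← TC2.evn_append, ← TC2.evn_append]
  exact one_of_ck _ (by decide) ck2

theorem pt1 : Fi22c.ψ (evn el r1) Fi22c.z = ⟨1, by decide⟩ := by
  apply Fin.ext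
  rw [TC2.psi_evn Fi22c.ψ Fi22c.hψ r1 (by decide)]
  decide +kernel

theorem pt2 : Fi22c.ψ (evn el r2) Fi22c.z = ⟨694, by decide⟩ := by
  apply Fin.ext
  rw [TC2.psi_evn Fi22c.ψ Fi22c.hψ r2 (by decide)]
  decide +kernel

theorem hcov : ∀ p, ∃ r ∈ ({1, evn el r1, evn el r2} : Set Cfsg.Spor.Fi22), ∃ h ∈ HH,
    Fi22c.ψ h (Fi22c.ψ r Fi22c.z) = p := by
  intro p
  rcases Nat.lt_or_ge p.1 1 with h0 | h0
  · refine ⟨1, by simp, 1, Subgroup.one_mem _, ?_⟩
    rw [map_one]
    apply Fin.ext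
    have : (Fi22c.z).1 = 0 := rfl
    simp only [Equiv.Perm.coe_one, id_eq]
    omega
  rcases Nat.lt_or_ge p.1 694 with h1 | h1
  · have hp : p ∈ {i : Fin Fi22c.cB.N | 1 ≤ i.1 ∧ i.1 < 694} := ⟨h0, h1⟩
    rw [← Fi22c.orb_0] at hp
    obtain ⟨h, hh, e⟩ := hp
    exact ⟨evn el r1, by simp, h, hh, by rw [pt1]; exact e⟩
  · have hp : p ∈ {i : Fin Fi22c.cB.N | 694 ≤ i.1 ∧ i.1 < 3510} := ⟨h1, p.2⟩
    rw [← Fi22c.orb_1] at hp
    obtain ⟨h, hh, e⟩ := hp
    exact ⟨evn el r2, by simp, h, hh, by rw [pt2]; exact e⟩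

theorem all_g : ∀ g : Cfsg.Spor.Fi22,
    (t * (g * t * g⁻¹)) ^ 2 = 1 ∨ (t * (g * t * g⁻¹)) ^ 3 = 1 := by
  apply Transp.reduce_reps Fi22c.ψ Fi22c.z HH OrdFi22.CX.stab t t_comm
    (fun u => u ^ 2 = 1 ∨ u ^ 3 = 1) _ _ hcov
  · intro r hr
    simp only [Set.mem_insert_iff, Set.mem_singleton_iff] at hr
    rcases hr with rfl | rfl | rfl
    · exact Or.inl P0
    · exact Or.inl P1
    · exact Or.inr P2
  · intro u h hu
    rw [conj_pow, conj_pow]
    rcases hu with hu | hu
    · left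
      rw [hu]
      group
    · right
      rw [hu]
      group

theorem transp : Cfsg.IsThreeTranspositionSet (conjugatesOf t) :=
  Transp.transp_set t t_ne t_sq all_g

theorem centralizer_eq : Subgroup.centralizer {t} = HH := by
  have hle : HH ≤ Subgroup.centralizer {t} := fun x hx =>
    Subgroup.mem_centralizer_singleton_iff.2 (t_comm x hx)
  by_contra hne
  have htop := OrdFi22.CX.coatom.2 _ (lt_of_le_of_ne hle (Ne.symm hne))
  apply t_ne
  have hc : t ∈ Subgroup.center Cfsg.Spor.Fi22 := by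
    rw [Subgroup.mem_center_iff]
    intro g
    have : g ∈ Subgroup.centralizer {t} := by rw [htop]; exact Subgroup.mem_top g
    exact Subgroup.mem_centralizer_singleton_iff.1 this
  rw [DCover.center_bot_of_simple S1696.simple S1696.hperf] at hc
  exact Subgroup.mem_bot.1 hc

theorem card_D : Nat.card (conjugatesOf t) = 3510 := by
  rw [Transp.card_conjugatesOf, centralizer_eq, Fi22c.index_eq]

theorem closure_D : Subgroup.closure (conjugatesOf t) = ⊤ := by
  rw [Transp.closure_conjugatesOf]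
  apply S1696.hgenN
  have h : t = el 0 := TC2.evn_single el 0
  rw [← h]
  exact Subgroup.subset_normalClosure (Set.mem_singleton t)

theorem cover_t : Cfsg.IsNonsplitDoubleCover (Subgroup.centralizer {t}) PU :=
  Transp.transport (MulEquiv.subgroupCongr centralizer_eq.symm) main perf_HH

theorem perf_t : commutator (Subgroup.centralizer {t}) = ⊤ :=
  Transp.perfect_of_equiv (MulEquiv.subgroupCongr centralizer_eq.symm) perf_HH

theorem cover_d : ∀ d ∈ conjugatesOf t,
    Cfsg.IsNonsplitDoubleCover (Subgroup.centralizer {d}) PU := by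
  intro d hd
  obtain ⟨g, rfl⟩ := isConj_iff.1 (show IsConj t d from hd)
  exact Transp.transport (Transp.centralizerEquiv t g) cover_t perf_t

theorem cls : Cfsg.IsThreeTranspositionClass (conjugatesOf t) :=
  ⟨transp, ⟨t, mem_conjugatesOf_self, rfl⟩, closure_D⟩

end Cfsg.Agent.Lib.Helper19.U6
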