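import Cfsg.Agent.Lib.Helper12.UnitarySU
import Cfsg.Agent.Lib.Helper19.Sp4.K4

/-! Unitary transvections in `SU₆(2)`. -/

set_option autoImplicit false

namespace Cfsg.Agent.Lib.Helper19.U6

open Matrix Cfsg
open Cfsg.Agent.Lib.Helper19.Sp4 (K4)
open Cfsg.Agent.Lib.Helper6 Cfsg.Agent.Lib.Helper12

abbrev V6 := Fin 6 → K4
abbrev H6 : V6 → V6 → K4 := hermForm 6 K4 2
abbrev SU6 := Cfsg.SU 6 K4 2

theorem hF : Fintype.card K4 = 2 ^ 2 := rfl

theorem H6_add_left (u v w : V6) : H6 (u + v) w = H6 u w + H6 v w := herm_add_left 2 6 u v w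
theorem H6_smul_left (c : K4) (u w : V6) : H6 (c • u) w = c * H6 u w := herm_smul_left 2 6 c u w
theorem H6_smul_right (c : K4) (u w : V6) : H6 u (c • w) = c ^ 2 * H6 u w :=
  herm_smul_right 2 6 c u w
theorem H6_single_left (i : Fin 6) (w : V6) : H6 (Pi.single i 1) w = (w i) ^ 2 :=
  herm_single_left 2 6 i w

theorem two_zero (a : K4) : a + a = 0 := by revert a; decide
theorem cube_one : ∀ l : K4, l ≠ 0 → l ^ 2 * l = 1 := by decide
theorem sq_one : ∀ d : K4, d * d = 1 → d = 1 := by decide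

/-- the transvection as a function -/
def tf (v x : V6) : V6 := x + H6 x v • v

/-- the transvection as a matrix -/
def tM (v : V6) : Matrix (Fin 6) (Fin 6) K4 := unitaryTransvection 6 2 v 1

theorem tM_mulVec (v x : V6) : tM v *ᵥ x = tf v x := by
  unfold tM tf
  rw [unitaryTransvection_mulVec, one_mul]

theorem tf_tf (v : V6) (hv : H6 v v = 0) (x : V6) : tf v (tf v x) = x := by
  unfold tf
  rw [H6_add_left, H6_smul_left, hv, mul_zero, add_zero, add_assoc, ← add_smul, two_zero,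
    zero_smul, add_zero]

theorem tM_sq (v : V6) (hv : H6 v v = 0) : tM v * tM v = 1 := by
  apply Matrix.mulVec_injective
  funext x
  rw [← mulVec_mulVec, tM_mulVec, tM_mulVec, tf_tf v hv, one_mulVec]

theorem tM_det (v : V6) (hv : H6 v v = 0) : (tM v).det = 1 := by
  apply sq_one
  rw [← det_mul, tM_sq v hv, det_one]

theorem tM_pres (v : V6) (hv : H6 v v = 0) : HPres 2 6 (tM v) := by
  apply utv_pres hF
  have hv' : hermForm 6 K4 2 v v = 0 := hv
  rw [hv']
  decide

/-- the transvection as an element of the special unitary group -/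
def tS (v : V6) (hv : H6 v v = 0) : SU6 := ⟨⟨tM v, tM_det v hv⟩, tM_pres v hv⟩

abbrev mt (g : SU6) : Matrix (Fin 6) (Fin 6) K4 := ((g : SpecialLinearGroup (Fin 6) K4) : Matrix (Fin 6) (Fin 6) K4)

theorem tS_coe (v : V6) (hv : H6 v v = 0) : mt (tS v hv) = tM v := rfl

theorem SU_H (g : SU6) (x y : V6) : H6 (mt g *ᵥ x) (mt g *ᵥ y) = H6 x y := g.2 x y

theorem SU_ext {g h : SU6} (e : ∀ x : V6, mt g *ᵥ x = mt h *ᵥ x) : g = h := by
  apply Subtype.ext
  apply Subtype.ext
  apply Matrix.mulVec_injective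
  funext x
  exact e x

theorem SU_mul_coe (g h : SU6) (x : V6) : mt (g * h) *ᵥ x = mt g *ᵥ (mt h *ᵥ x) := by
  rw [mulVec_mulVec]
  rfl

theorem conj_tS (g : SU6) (v : V6) (hv : H6 v v = 0) (w : V6) (hw : H6 w w = 0) (l : K4)
    (hl : l ≠ 0) (h : mt g *ᵥ v = l • w) : g * tS v hv = tS w hw * g := by
  apply SU_ext
  intro x
  rw [SU_mul_coe, SU_mul_coe, tS_coe, tS_coe, tM_mulVec, tM_mulVec]
  unfold tf
  rw [mulVec_add, mulVec_smul, ← SU_H g x v, h, H6_smul_right, smul_smul, mul_right_comm,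
    cube_one l hl, one_mul]

theorem prop_of_tS {v w : V6} (hv : H6 v v = 0) (hw : H6 w w = 0) (h0 : v ≠ 0)
    (h : tS v hv = tS w hw) : ∃ l : K4, l ≠ 0 ∧ v = l • w := by
  have h1 : tM v = tM w := congrArg mt h
  have h2 : ∀ x, H6 x v • v = H6 x w • w := by
    intro x
    have : tf v x = tf w x := by rw [← tM_mulVec, ← tM_mulVec, h1]
    exact add_left_cancel this
  obtain ⟨i, hi⟩ : ∃ i, v i ≠ 0 := by
    by_contra hc
    push Not at hc
    exact h0 (funext hc)
  have h3 := h2 (Pi.single i 1)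
  rw [H6_single_left] at h3
  have ha : (v i) ^ 2 ≠ 0 := pow_ne_zero _ hi
  have h4 : v = (((v i) ^ 2)⁻¹ * H6 (Pi.single i 1) w) • w := by
    rw [mul_smul, ← h3, smul_smul, inv_mul_cancel₀ ha, one_smul]
  refine ⟨_, ?_, h4⟩
  intro hc
  rw [hc, zero_smul] at h4
  exact h0 h4

/-- a matrix commuting with enough transvections is scalar -/
def va (a b : Fin 6) (l : K4) : V6 := Pi.single a 1 + l • Pi.single b 1

theorem va_iso : ∀ a b : Fin 6, a ≠ b → ∀ l : K4, l ≠ 0 → H6 (va a b l) (va a b l) = 0 ∧ va a b l ≠ 0 := by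
  decide +kernel

theorem single_eq : ∀ a b : Fin 6, a ≠ b → Matrix.single a b (1 : K4) =
    (tM (va a b K4.i) - 1) + K4.w • (tM (va a b K4.w) - 1) + K4.u • (tM (va a b K4.u) - 1) := by
  decide +kernel

theorem scalar_of_commute (Z : Matrix (Fin 6) (Fin 6) K4)
    (h : ∀ a b : Fin 6, a ≠ b → ∀ l : K4, l ≠ 0 → Commute (tM (va a b l)) Z) :
    Z ∈ Set.range (Matrix.scalar (Fin 6)) := by
  apply Matrix.mem_range_scalar_of_commute_single
  intro a b hab
  rw [single_eq a b hab]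
  have c1 := h a b hab K4.i (by decide)
  have c2 := h a b hab K4.w (by decide)
  have c3 := h a b hab K4.u (by decide)
  exact ((c1.sub_left (Commute.one_left Z)).add_left
    ((c2.sub_left (Commute.one_left Z)).smul_left _)).add_left
    ((c3.sub_left (Commute.one_left Z)).smul_left _)

end Cfsg.Agent.Lib.Helper19.U6
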