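import Cfsg.Agent.S1696
import Cfsg.Agent.S0280
import Cfsg.Agent.Lib.Helper19.O7.Abs
import Cfsg.Agent.Lib.Helper19.U6.Abs
import Cfsg.Agent.Lib.Helper19.U6.Ck
import Cfsg.Agent.Lib.Helper19.U6.CkV

/-! The subgroup `⟨a, c, …, i, (abcdeh)⁵⟩` of `Fi22` is a non-split double cover of `PSU₆(2)`. -/

set_option autoImplicit false
set_option maxRecDepth 1000000

namespace Cfsg.Agent.Lib.Helper19.U6

open Cfsg.Agent.Lib.Helper19.TCS
open Cfsg.Agent.Lib.Helper19.TC2 (KW ab_eq_of_odd one_of_odd_pow perfect_of_gens)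
open Cfsg.Agent.Lib.Helper19.PresFi22 (el)
open Cfsg.Agent.Lib.Helper19.Sp4 (K4 flat)
open Cfsg.Agent.Lib.Helper19
open Matrix

/-! ### the matrix side -/

theorem iso_vt (j : Fin 693) : H6 (vt j.1) (vt j.1) = 0 := (okT2 j).1

theorem vt_ne (j : Fin 693) : vt j.1 ≠ 0 := (okT2 j).2.1

/-- the transvections -/
def Tm (j : Fin 693) : SU6 := tS (vt j.1) (iso_vt j)

theorem Tm_inj : Function.Injective Tm := by
  intro j k h
  obtain ⟨l, hl, e⟩ := prop_of_tS (iso_vt j) (iso_vt k) (vt_ne j) h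
  apply Fin.ext
  have h1 := (okT2 j).2.2 1 (by decide)
  rw [one_smul, e, (okT2 k).2.2 l hl] at h1
  exact h1.symm

theorem complete (v : V6) (hv : H6 v v = 0) (h0 : v ≠ 0) :
    ixc (enc6 v) < 693 ∧ ∃ l : K4, l ≠ 0 ∧ v = l • vt (ixc (enc6 v)) := by
  have h := okT1 ⟨enc6 v, enc6_lt v⟩ (enc6_ne h0)
  simp only [dec6_enc6] at h
  exact h hv

theorem mt_one (x : V6) : mt (1 : SU6) *ᵥ x = x := one_mulVec x

theorem mv_ne (g : SU6) {v : V6} (h : v ≠ 0) : mt g *ᵥ v ≠ 0 := by
  intro e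
  apply h
  have := SU_mul_coe g⁻¹ g v
  rw [inv_mul_cancel, e, mulVec_zero] at this
  exact (mt_one v).symm.trans this

/-- the action on indices -/
def ac (g : SU6) (j : Fin 693) : ℕ := ixc (enc6 (mt g *ᵥ vt j.1))

theorem ac_spec (g : SU6) (j : Fin 693) : ∃ h : ac g j < 693, g * Tm j = Tm ⟨ac g j, h⟩ * g := by
  have hq : H6 (mt g *ᵥ vt j.1) (mt g *ᵥ vt j.1) = 0 := by rw [SU_H, iso_vt]
  obtain ⟨h1, l, hl, e⟩ := complete _ hq (mv_ne g (vt_ne j))
  exact ⟨h1, conj_tS g _ (iso_vt j) _ (iso_vt ⟨_, h1⟩) l hl e⟩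

theorem all_nzr (g : SU6) : g ∈ Sp4.nzr Tm Tm_inj := by
  intro j
  obtain ⟨h, e⟩ := ac_spec g j
  refine ⟨⟨_, h⟩, ?_⟩
  rw [e]
  group

/-- the action of the special unitary group on the 693 isotropic points -/
noncomputable def sig0 : SU6 →* Equiv.Perm (Fin 693) :=
  (Sp4.rho Tm Tm_inj).comp ((MonoidHom.id SU6).codRestrict (Sp4.nzr Tm Tm_inj) all_nzr)

theorem sig0_eq (g : SU6) (j k : Fin 693) (h : g * Tm j = Tm k * g) : sig0 g j = k :=
  Sp4.rho_eq Tm Tm_inj ⟨g, all_nzr g⟩ j k h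

theorem sig0_spec (g : SU6) (j : Fin 693) : Tm (sig0 g j) = g * Tm j * g⁻¹ :=
  Sp4.rho_spec Tm Tm_inj ⟨g, all_nzr g⟩ j

theorem sig0_val (g : SU6) (j : Fin 693) : (sig0 g j).1 = ac g j := by
  obtain ⟨h, e⟩ := ac_spec g j
  rw [sig0_eq g j ⟨_, h⟩ e]

/-- the images of the nine generators -/
def A (k : ℕ) : SU6 := if h : 0 < k ∧ k < 9 then Tm ⟨selN ptl k, ptl_lt ⟨k, h.2⟩⟩ else 1

theorem sig0_A : ∀ k < 9, ∀ j : Fin 693, (sig0 (A k) j).1 = fB cR k j.1 := by
  intro k hk j
  rcases Nat.eq_zero_or_pos k with rfl | h0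
  · have : A 0 = 1 := by unfold A; rw [dif_neg (by omega)]
    rw [this, map_one, okR0 j]
    rfl
  · rw [sig0_val]
    unfold ac A
    rw [dif_pos ⟨h0, hk⟩]
    show ixc (enc6 (tM _ *ᵥ vt j.1)) = _
    rw [tM_mulVec]
    exact okM ⟨k, hk⟩ (by show k ≠ 0; omega) j

theorem center_le : ∀ z ∈ Subgroup.center SU6, sig0 z = 1 := by
  intro z hz
  ext j
  have h := Subgroup.mem_center_iff.1 hz (Tm j)
  have : sig0 z j = j := sig0_eq z j j h.symm
  exact congrArg Fin.val this

theorem tM_smul (l : K4) (hl : l ≠ 0) (w : V6) : tM (l • w) = tM w := by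
  apply Matrix.mulVec_injective
  funext x
  rw [tM_mulVec, tM_mulVec]
  unfold tf
  rw [H6_smul_right, smul_smul, mul_right_comm, cube_one l hl, one_mul]

theorem ker_le (g : SU6) (h : sig0 g = 1) : g ∈ Subgroup.center SU6 := by
  have hc : ∀ j, g * Tm j = Tm j * g := by
    intro j
    have h1 := sig0_spec g j
    rw [h] at h1
    have h2 : Tm j = g * Tm j * g⁻¹ := h1
    rw [eq_mul_inv_iff_mul_eq] at h2
    exact h2.symm
  have hs : mt g ∈ Set.range (Matrix.scalar (Fin 6)) := by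
    apply scalar_of_commute
    intro a b hab l hl
    obtain ⟨hi, hn⟩ := va_iso a b hab l hl
    obtain ⟨h1, l', hl', e⟩ := complete _ hi hn
    rw [e, tM_smul l' hl']
    exact (congrArg mt (hc ⟨_, h1⟩)).symm
  obtain ⟨c, hc'⟩ := hs
  rw [Subgroup.mem_center_iff]
  intro x
  apply Subtype.ext
  apply Subtype.ext
  show mt x * mt g = mt g * mt x
  rw [← hc']
  exact (Matrix.scalar_commute c (fun r => mul_comm c r) (mt x)).symm

abbrev PU := Cfsg.PSU 6 K4 2

noncomputable def sigb : PU →* Equiv.Perm (Fin 693) :=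
  QuotientGroup.lift (Subgroup.center SU6) sig0 center_le

theorem sigb_mk (x : SU6) : sigb (QuotientGroup.mk x) = sig0 x := rfl

theorem sigb_inj : Function.Injective sigb := by
  rw [injective_iff_map_eq_one]
  intro y hy
  obtain ⟨x, rfl⟩ := QuotientGroup.mk_surjective y
  rw [sigb_mk] at hy
  exact (QuotientGroup.eq_one_iff x).2 (ker_le x hy)

theorem card_PU : Nat.card PU = 9196830720 := by
  have h := Cfsg.Agent.S0280.result (F := K4) (q := 2) hF 6 (by decide)
  have e : 2 ^ (6 * (6 - 1) / 2) * ∏ i ∈ Finset.range 6,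
      (if Even i then 2 ^ (i + 1) + 1 else 2 ^ (i + 1) - 1) =
      Nat.gcd 6 (2 + 1) * ((2 + 1) * 9196830720) := by decide +kernel
  rw [e] at h
  exact Nat.eq_of_mul_eq_mul_left (by decide) (Nat.eq_of_mul_eq_mul_left (by decide) h)

/-! ### the side of `Fi22` -/

theorem hsel (k : ℕ) : ∀ x ∈ selW Fi22c.sgw k, x < 9 := by
  rcases selW_prop Fi22c.sgw k with h | h
  · exact Fi22c.hsg _ h
  · rw [h]; simp

theorem hmem (k : ℕ) : evn el (selW Fi22c.sgw k) ∈ Fi22c.HH := by
  rw [Fi22c.hH]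
  rcases selW_prop Fi22c.sgw k with h | h
  · exact Fi22c.h2 _ h
  · rw [h]; exact Subgroup.one_mem _

/-- the nine generators -/
noncomputable def hel (k : ℕ) : Fi22c.HH := ⟨evn el (selW Fi22c.sgw k), hmem k⟩

def emb (j : Fin 693) : Fin Fi22c.cB.N := ⟨j.1 + 1, by have := j.2; show j.1 + 1 < 3510; omega⟩

theorem emb_inj : Function.Injective emb := by
  intro j k h
  have h2 : j.1 + 1 = k.1 + 1 := congrArg Fin.val h
  apply Fin.ext
  omega

theorem fR_lt {k j : ℕ} (hk : k < 9) (hj : j < 693) : fB cR k j < 693 :=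
  blt_iff.1 (loop_spec (loop_spec okR_lt k (Nat.zero_le _) (by omega)) j (Nat.zero_le _) (by omega))

theorem gen_emb {k : ℕ} (hk : k < 9) (j : Fin 693) :
    Fi22c.ψ (evn el (selW Fi22c.sgw k)) (emb j) = emb ⟨fB cR k j.1, fR_lt hk j.2⟩ := by
  apply Fin.ext
  rw [TC2.psi_evn Fi22c.ψ Fi22c.hψ _ (hsel k)]
  have := loop_spec (loop_spec okE k (Nat.zero_le _) (by omega)) j.1 (Nat.zero_le _)
    (by have := j.2; omega)
  rwa [Nat.beq_eq] at this

theorem K_le : Fi22c.HH ≤ O7.nzrA Fi22c.ψ emb emb_inj := by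
  rw [Fi22c.hH, Subgroup.closure_le]
  intro s hs
  obtain ⟨w, hw, rfl⟩ := Fi22c.h1 s hs
  obtain ⟨k, rfl⟩ := sgw_sel w hw
  intro j
  exact ⟨_, gen_emb k.2 j⟩

/-- the action of the subgroup on the 693 points -/
noncomputable def rhoH : Fi22c.HH →* Equiv.Perm (Fin 693) :=
  (O7.rhoA Fi22c.ψ emb emb_inj).comp (Subgroup.inclusion K_le)

theorem rhoH_hel : ∀ k < 9, ∀ j : Fin 693, (rhoH (hel k) j).1 = fB cR k j.1 := by
  intro k hk j
  have : rhoH (hel k) j = ⟨fB cR k j.1, fR_lt hk j.2⟩ := by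
    apply O7.rhoA_eq
    exact gen_emb hk j
  rw [this]

noncomputable def rel (k : ℕ) : Equiv.Perm (Fin 693) := rhoH (hel k)

theorem card_A : 9196830720 ≤ Nat.card (KW rel ws0) := by
  have hJ1 : ∀ w ∈ ws1, ∀ k ∈ w, k < 9 := fun w hw => hJ0 w (hs1 w hw)
  have hJ2 : ∀ w ∈ ws2, ∀ k ∈ w, k < 9 := fun w hw => hJ1 w (hs2 w hw)
  have hJ3 : ∀ w ∈ ws3, ∀ k ∈ w, k < 9 := fun w hw => hJ2 w (hs3 w hw)
  have hJ4 : ∀ w ∈ ws4, ∀ k ∈ w, k < 9 := fun w hw => hJ3 w (hs4 w hw)
  have s0 : 693 * Nat.card (KW rel ws1) ≤ Nat.card (KW rel ws0) :=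
    Sp4.lb_step (B := cR) (el := rel) rhoH_hel ws0 ws1 hJ0 hs1 0 (by decide) hf1 pa0 693 hl0 hn0
  have s1 : 512 * Nat.card (KW rel ws2) ≤ Nat.card (KW rel ws1) :=
    Sp4.lb_step (B := cR) (el := rel) rhoH_hel ws1 ws2 hJ1 hs2 1 (by decide) hf2 pa1 512 hl1 hn1
  have s2 : 135 * Nat.card (KW rel ws3) ≤ Nat.card (KW rel ws2) :=
    Sp4.lb_step (B := cR) (el := rel) rhoH_hel ws2 ws3 hJ2 hs3 3 (by decide) hf3 pa2 135 hl2 hn2
  have s3 : 32 * Nat.card (KW rel ws4) ≤ Nat.card (KW rel ws3) :=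
    Sp4.lb_step (B := cR) (el := rel) rhoH_hel ws3 ws4 hJ3 hs4 7 (by decide) hf4 pa3 32 hl3 hn3
  have s4 : 6 * Nat.card (KW rel []) ≤ Nat.card (KW rel ws4) :=
    Sp4.lb_step (B := cR) (el := rel) rhoH_hel ws4 [] hJ4 (by simp) 57 (by decide) (by simp) pa4 6
      hl4 hn4
  have s5 : 0 < Nat.card (KW rel []) := Nat.card_pos
  omega

theorem evn_mem' {G : Type*} [Group G] (K : Subgroup G) (f : ℕ → G) (L : ℕ)
    (hf : ∀ k < L, f k ∈ K) (w : List ℕ) (hw : ∀ k ∈ w, k < L) : evn f w ∈ K := by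
  apply Subgroup.list_prod_mem
  intro x hx
  rw [List.mem_map] at hx
  obtain ⟨k, hk, rfl⟩ := hx
  exact hf k (hw k hk)

theorem A_le_rho : KW rel ws0 ≤ rhoH.range := by
  unfold KW
  rw [Subgroup.closure_le]
  rintro _ ⟨w, hw, rfl⟩
  exact evn_mem' rhoH.range rel 9 (fun k _ => ⟨_, rfl⟩) w (hJ0 w hw)

theorem card_range : 9196830720 ≤ Nat.card rhoH.range :=
  card_A.trans (Subgroup.card_le_of_le A_le_rho)

theorem hel_cases (k : ℕ) : hel k = 1 ∨ ∃ k' < 9, hel k = hel k' := by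
  rcases selW_prop Fi22c.sgw k with h | h
  · obtain ⟨k', hk'⟩ := sgw_sel _ h
    exact Or.inr ⟨k'.1, k'.2, Subtype.ext (by show evn el _ = evn el _; rw [hk'])⟩
  · left
    apply Subtype.ext
    show evn el _ = 1
    rw [h]
    rfl

theorem gen_top : Subgroup.closure (Set.range hel) = ⊤ := by
  apply Subgroup.map_injective Fi22c.HH.subtype_injective
  rw [MonoidHom.map_closure, ← Set.range_comp, ← MonoidHom.range_eq_map, Subgroup.range_subtype]
  apply le_antisymm
  · rw [Subgroup.closure_le]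
    rintro _ ⟨k, rfl⟩
    exact (hel k).2
  · conv_lhs => rw [Fi22c.hH]
    rw [Subgroup.closure_le]
    intro s hs
    obtain ⟨w, hw, rfl⟩ := Fi22c.h1 s hs
    obtain ⟨k, rfl⟩ := sgw_sel w hw
    exact Subgroup.subset_closure ⟨k.1, rfl⟩

theorem rel_eq {k : ℕ} (hk : k < 9) : rel k = sigb (QuotientGroup.mk (A k)) := by
  rw [sigb_mk]
  ext j
  rw [sig0_A k hk]
  exact rhoH_hel k hk j

theorem range_le : rhoH.range ≤ sigb.range := by
  rw [MonoidHom.range_eq_map, ← gen_top, MonoidHom.map_closure, Subgroup.closure_le]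
  rintro _ ⟨_, ⟨k, rfl⟩, rfl⟩
  rcases hel_cases k with h | ⟨k', hk', h⟩
  · rw [h, map_one]; exact Subgroup.one_mem _
  · rw [h]; exact ⟨_, (rel_eq hk').symm⟩

theorem card_HH : Nat.card Fi22c.HH = 18393661440 := by
  have h1 := Fi22c.HH.card_mul_index
  rw [Fi22c.index_eq, S1696.result.2] at h1
  omega

instance finH : Finite Fi22c.HH := Nat.finite_of_card_ne_zero (by rw [card_HH]; decide)

theorem hel_word (p : List ℕ) :
    ((evn hel p : Fi22c.HH) : Cfsg.Spor.Fi22) = evn el (flat Fi22c.sgw p) := by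
  induction p with
  | nil => rfl
  | cons k p ih =>
    have e : evn hel (k :: p) = hel k * evn hel p := by simp [evn]
    have e2 : flat Fi22c.sgw (k :: p) = selW Fi22c.sgw k ++ flat Fi22c.sgw p := by simp [flat]
    rw [e, e2, TC2.evn_append, Subgroup.coe_mul, ih]
    rfl

theorem word_one (p : List ℕ) (hp : p ∈ rels) : evn hel p = 1 := by
  apply Subtype.ext
  rw [hel_word]
  have hw : flat Fi22c.sgw p ∈ relw := by rw [← relw_eq]; exact List.mem_map_of_mem hp
  exact TC2.eq_of_app (L := 9) Fi22c.ψ Fi22c.hψ S1696.faith (flat Fi22c.sgw p) []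
    (relw_lt _ hw) (by simp)
    (fun i hi => Nat.eq_of_beq_eq_true (loop_spec (okRel _ hw) i (Nat.zero_le _)
      (by have : i < 3510 := hi; omega)))

theorem perf_HH : commutator Fi22c.HH = ⊤ := by
  have sq : ∀ k < 9, Abelianization.of (hel k) * Abelianization.of (hel k) = 1 := by
    intro k hk
    rw [← map_mul]
    have h1 : evn hel [k, k] = 1 := word_one _ (by interval_cases k <;> decide)
    have e : evn hel [k, k] = hel k * hel k := by simp [evn]
    rw [← e, h1, map_one]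
  have adj : ∀ s t, s < 9 → t < 9 → [s, t, s, t, s, t] ∈ rels →
      Abelianization.of (hel s) = Abelianization.of (hel t) := by
    intro s t hs ht h
    apply ab_eq_of_odd (sq s hs) (sq t ht) 1
    rw [← map_mul, ← map_pow]
    have := word_one _ h
    have e : evn hel [s, t, s, t, s, t] = (hel s * hel t) ^ (2 * 1 + 1) := by
      simp [evn, pow_succ, mul_assoc]
    rw [← e, this, map_one]
  have e12 := adj 1 2 (by decide) (by decide) (by decide)
  have e23 := adj 2 3 (by decide) (by decide) (by decide)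
  have e34 := adj 3 4 (by decide) (by decide) (by decide)
  have e45 := adj 4 5 (by decide) (by decide) (by decide)
  have e26 := adj 2 6 (by decide) (by decide) (by decide)
  have e67 := adj 6 7 (by decide) (by decide) (by decide)
  have e84 := adj 8 4 (by decide) (by decide) (by decide)
  have all : ∀ k, 0 < k → k < 9 → Abelianization.of (hel k) = Abelianization.of (hel 2) := by
    intro k h0 hk
    interval_cases k
    · exact e12
    · rfl
    · exact e23.symm
    · exact e34.symm.trans e23.symm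
    · exact e45.symm.trans (e34.symm.trans e23.symm)
    · exact e26.symm
    · exact e67.symm.trans e26.symm
    · exact e84.trans (e34.symm.trans e23.symm)
  have h1 : Abelianization.of (hel 2) = 1 := by
    have h2 := congrArg Abelianization.of
      (word_one ((List.replicate 9 [1, 2, 3, 4, 5, 6, 7]).flatten) (by decide))
    unfold evn at h2
    rw [map_list_prod, List.map_map, map_one,
      List.prod_eq_pow_card _ (Abelianization.of (hel 2))] at h2
    · exact one_of_odd_pow (sq 2 (by decide)) 31 h2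
    · intro y hy
      obtain ⟨x, hx, rfl⟩ := List.mem_map.1 hy
      have hall : ∀ x ∈ (List.replicate 9 [1, 2, 3, 4, 5, 6, 7]).flatten, 0 < x ∧ x < 9 := by
        decide
      exact all x (hall x hx).1 (hall x hx).2
  have hW : ∀ w : List ℕ, (∀ k ∈ w, 0 < k ∧ k < 9) → Abelianization.of (evn hel w) = 1 := by
    intro w hw
    unfold evn
    rw [map_list_prod, List.map_map]
    apply List.prod_eq_one
    intro y hy
    obtain ⟨x, hx, rfl⟩ := List.mem_map.1 hy
    exact (all x (hw x hx).1 (hw x hx).2).trans h1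
  have h0 : Abelianization.of (hel 0) = 1 := by
    have h2 := congrArg Abelianization.of
      (word_one (0 :: (List.replicate 5 [4, 8, 5, 3, 6, 5, 2, 1]).flatten) (by decide))
    have e : evn hel (0 :: (List.replicate 5 [4, 8, 5, 3, 6, 5, 2, 1]).flatten) =
        hel 0 * evn hel ((List.replicate 5 [4, 8, 5, 3, 6, 5, 2, 1]).flatten) := by
      simp only [evn, List.map_cons, List.prod_cons]
    rw [e, map_mul, hW _ (by decide), mul_one, map_one] at h2
    exact h2
  apply perfect_of_gens _ gen_top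
  rintro _ ⟨k, rfl⟩
  rcases hel_cases k with h | ⟨k', hk', h⟩
  · rw [h, map_one]
  · rw [h]
    rcases Nat.eq_zero_or_pos k' with rfl | hp
    · exact h0
    · exact (all k' hp hk').trans h1

/-! ### the centre of the unitary group -/

theorem cen_comm (z : PU) (hz : z ∈ Subgroup.center PU) (w : List ℕ) (hw : ∀ k ∈ w, k < 9) :
    sigb z * evn rel w = evn rel w * sigb z := by
  induction w with
  | nil => simp [evn]
  | cons k w ih =>
    have e : evn rel (k :: w) = rel k * evn rel w := by simp [evn]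
    have hk : sigb z * rel k = rel k * sigb z := by
      rw [rel_eq (hw k (by simp)), ← map_mul, ← map_mul, Subgroup.mem_center_iff.1 hz]
    rw [e, ← mul_assoc, hk, mul_assoc, ih (fun j hj => hw j (by simp [hj])), mul_assoc]

theorem rel_word (w : List ℕ) (hw : ∀ k ∈ w, k < 9) (j : Fin 693) :
    (evn rel w j).1 = app cR w j.1 :=
  Sp4.el_evn (B := cR) (el := rel) rhoH_hel w hw j

theorem cen_fix0 (z : PU) (hz : z ∈ Subgroup.center PU) : sigb z 0 = 0 := by
  rcases okFix (sigb z 0) with h | ⟨w, hw, h⟩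
  · exact Fin.ext h
  · exfalso
    apply h
    have hJ : ∀ k ∈ w, k < 9 := hJ0 w (hs1 w hw)
    rw [← rel_word w hJ]
    have h1 : evn rel w 0 = 0 := by
      apply Fin.ext
      rw [rel_word w hJ]
      exact hf1 w hw
    have h2 := congrArg (fun π : Equiv.Perm (Fin 693) => π 0) (cen_comm z hz w hJ)
    simp only [Equiv.Perm.mul_apply] at h2
    rw [h1] at h2
    rw [← h2]

theorem cen_fix (z : PU) (hz : z ∈ Subgroup.center PU) (j : Fin 693) : sigb z j = j := by
  obtain ⟨j, hj⟩ := j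
  induction j using Nat.strong_induction_on with
  | _ j ih =>
    rcases okTree ⟨j, hj⟩ with h | ⟨h1, h2, h3⟩
    · have h' : j = 0 := h
      subst h'
      exact cen_fix0 z hz
    · have hlt : fld 12 4095 tPAR j < j := h1
      have hp := ih _ hlt (by omega)
      have he : rel (fld 12 4095 tLET j) ⟨fld 12 4095 tPAR j, by omega⟩ = ⟨j, hj⟩ := by
        apply Fin.ext
        exact (rhoH_hel _ h2 _).trans h3
      have hc := cen_comm z hz [fld 12 4095 tLET j] (by
        intro k hk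
        rw [List.mem_singleton] at hk
        rw [hk]
        exact h2)
      have e1 : evn rel [fld 12 4095 tLET j] = rel (fld 12 4095 tLET j) := by simp [evn]
      rw [e1] at hc
      have h4 := congrArg (fun π : Equiv.Perm (Fin 693) => π ⟨fld 12 4095 tPAR j, by omega⟩) hc
      simp only [Equiv.Perm.mul_apply] at h4
      rw [he, hp, he] at h4
      exact h4

theorem center_PU : Subgroup.center PU = ⊥ := by
  rw [eq_bot_iff]
  intro z hz
  rw [Subgroup.mem_bot]
  apply sigb_inj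
  rw [map_one]
  ext j
  rw [cen_fix z hz j]
  rfl

/-! ### the central involution -/

theorem el0_ne : el 0 ≠ 1 := by
  intro h
  have h2 := S1696.hgenN ⊥ (by rw [h]; exact Subgroup.one_mem _)
  have := S1696.simple.toNontrivial
  exact bot_ne_top h2

theorem tH_ne : hel 0 ≠ 1 := by
  intro h
  apply el0_ne
  have h1 : evn el [0] = 1 := congrArg Subtype.val h
  simpa [evn] using h1

theorem tH_sq : hel 0 * hel 0 = 1 := by
  have h1 : evn hel [0, 0] = 1 := word_one _ (by decide)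
  simpa [evn] using h1

theorem t_comm : ∀ x ∈ Fi22c.HH, x * evn el [0] = evn el [0] * x := by
  have h : Fi22c.HH ≤ Subgroup.centralizer {evn el [0]} := by
    rw [Fi22c.hH, Subgroup.closure_le]
    intro s hs
    obtain ⟨w, hw, rfl⟩ := Fi22c.h1 s hs
    rw [SetLike.mem_coe, Subgroup.mem_centralizer_singleton_iff]
    exact S1696.cmAll w hw
  intro x hx
  exact Subgroup.mem_centralizer_singleton_iff.1 (h hx)

theorem tH_comm (x : Fi22c.HH) : x * hel 0 = hel 0 * x := Subtype.ext (t_comm x.1 x.2)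

theorem rho_tH : rhoH (hel 0) = 1 := by
  ext j
  rw [rhoH_hel 0 (by decide), okR0 j]
  rfl

theorem main : Cfsg.IsNonsplitDoubleCover Fi22c.HH PU := by
  obtain ⟨θ, hθ, hc⟩ := cover_of_count rhoH sigb sigb_inj 9196830720 card_PU card_range range_le
  apply nonsplit' (hel 0) tH_ne tH_sq tH_comm θ hθ ?_ (by rw [card_HH, card_PU]) center_PU perf_HH
  apply sigb_inj
  rw [hc, map_one, rho_tH]

end Cfsg.Agent.Lib.Helper19.U6
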