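import Cfsg.Agent.Lib.Helper19.U6.Herm
import Cfsg.Agent.Lib.Helper19.U6.Data

/-! Coded vectors. -/

set_option autoImplicit false
set_option maxRecDepth 1000000

namespace Cfsg.Agent.Lib.Helper19.U6

open Cfsg.Agent.Lib.Helper19.TCS
open Cfsg.Agent.Lib.Helper19.Sp4 (K4)

def dec6 (c : ℕ) : V6 := fun i => K4.ofN (c / 4 ^ i.1 % 4)

def enc6 (v : V6) : ℕ :=
  (v 0).n + 4 * (v 1).n + 16 * (v 2).n + 64 * (v 3).n + 256 * (v 4).n + 1024 * (v 5).n

theorem enc6_lt (v : V6) : enc6 v < 4096 := by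
  have h0 := K4.n_lt (v 0)
  have h1 := K4.n_lt (v 1)
  have h2 := K4.n_lt (v 2)
  have h3 := K4.n_lt (v 3)
  have h4 := K4.n_lt (v 4)
  have h5 := K4.n_lt (v 5)
  unfold enc6
  omega

theorem ofN_of (a : K4) (m : ℕ) (h : m = a.n) : K4.ofN m = a := by rw [h, K4.ofN_n]

theorem dec6_enc6 (v : V6) : dec6 (enc6 v) = v := by
  have h0 := K4.n_lt (v 0)
  have h1 := K4.n_lt (v 1)
  have h2 := K4.n_lt (v 2)
  have h3 := K4.n_lt (v 3)
  have h4 := K4.n_lt (v 4)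
  have h5 := K4.n_lt (v 5)
  funext i
  fin_cases i
  · exact ofN_of (v 0) _ (by show enc6 v / 4 ^ 0 % 4 = _; unfold enc6; omega)
  · exact ofN_of (v 1) _ (by show enc6 v / 4 ^ 1 % 4 = _; unfold enc6; omega)
  · exact ofN_of (v 2) _ (by show enc6 v / 4 ^ 2 % 4 = _; unfold enc6; omega)
  · exact ofN_of (v 3) _ (by show enc6 v / 4 ^ 3 % 4 = _; unfold enc6; omega)
  · exact ofN_of (v 4) _ (by show enc6 v / 4 ^ 4 % 4 = _; unfold enc6; omega)
  · exact ofN_of (v 5) _ (by show enc6 v / 4 ^ 5 % 4 = _; unfold enc6; omega)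

theorem dec6_zero : dec6 0 = 0 := by decide +kernel

theorem enc6_ne {v : V6} (h : v ≠ 0) : enc6 v ≠ 0 := by
  intro e
  apply h
  rw [← dec6_enc6 v, e, dec6_zero]

/-- the vector of a point -/
def vt (j : ℕ) : V6 := dec6 (fld 12 4095 tVT j)

/-- the index of a coded vector -/
def ixc (c : ℕ) : ℕ := fld 12 4095 tIDX c

end Cfsg.Agent.Lib.Helper19.U6
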